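import Mathlib
import Cfsg.Prelude.Def_Sporadic_a
import Cfsg.Agent.Lib.Steiner.Counting

/-!
Projective planes of order 4 as Steiner systems `S(2,5,21)`: lines, independent sets, quadrangles and
hyperovals.
-/

set_option autoImplicit false
set_option linter.unusedSectionVars false

namespace Cfsg.Agent.Lib.Plane4.Basic

open Finset

variable {α : Type*} [Fintype α] [DecidableEq α]

/-- A plane of order 4. -/
structure Plane (L : Set (Finset α)) : Prop where
  card : Fintype.card α = 21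
  steiner : Cfsg.IsSteinerSystem 2 5 L

variable {L : Set (Finset α)}

lemma Plane.card_line (hP : Plane L) {l : Finset α} (hl : l ∈ L) : l.card = 5 := hP.steiner.1 l hl

lemma Plane.exists_line (hP : Plane L) {p q : α} (h : p ≠ q) : ∃ l ∈ L, p ∈ l ∧ q ∈ l := by
  obtain ⟨l, ⟨hl, hsub⟩, _⟩ := hP.steiner.2 {p, q} (card_pair h)
  exact ⟨l, hl, hsub (by simp), hsub (by simp)⟩

lemma Plane.line_unique (hP : Plane L) {p q : α} (h : p ≠ q) {l l' : Finset α} (hl : l ∈ L)
    (hl' : l' ∈ L) (hp : p ∈ l) (hq : q ∈ l) (hp' : p ∈ l') (hq' : q ∈ l') : l = l' := by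
  obtain ⟨l₀, _, huniq⟩ := hP.steiner.2 {p, q} (card_pair h)
  have h1 : l = l₀ := huniq l ⟨hl, by
    intro x hx
    simp only [mem_insert, mem_singleton] at hx
    rcases hx with rfl | rfl <;> assumption⟩
  have h2 : l' = l₀ := huniq l' ⟨hl', by
    intro x hx
    simp only [mem_insert, mem_singleton] at hx
    rcases hx with rfl | rfl <;> assumption⟩
  rw [h1, h2]

open Classical in
/-- The line through two points (junk if the points agree or there is none). -/
noncomputable def ln (L : Set (Finset α)) (p q : α) : Finset α :=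
  if h : ∃ l ∈ L, p ∈ l ∧ q ∈ l then h.choose else ∅

lemma ln_spec (hP : Plane L) {p q : α} (h : p ≠ q) :
    ln L p q ∈ L ∧ p ∈ ln L p q ∧ q ∈ ln L p q := by
  have hex := hP.exists_line h
  unfold ln
  rw [dif_pos hex]
  exact hex.choose_spec

lemma ln_mem (hP : Plane L) {p q : α} (h : p ≠ q) : ln L p q ∈ L := (ln_spec hP h).1
lemma left_mem_ln (hP : Plane L) {p q : α} (h : p ≠ q) : p ∈ ln L p q := (ln_spec hP h).2.1
lemma right_mem_ln (hP : Plane L) {p q : α} (h : p ≠ q) : q ∈ ln L p q := (ln_spec hP h).2.2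

lemma eq_ln (hP : Plane L) {p q : α} (h : p ≠ q) {l : Finset α} (hl : l ∈ L) (hp : p ∈ l)
    (hq : q ∈ l) : l = ln L p q :=
  hP.line_unique h hl (ln_mem hP h) hp hq (left_mem_ln hP h) (right_mem_ln hP h)

lemma ln_comm (hP : Plane L) {p q : α} (h : p ≠ q) : ln L p q = ln L q p :=
  eq_ln hP h.symm (ln_mem hP h) (right_mem_ln hP h) (left_mem_ln hP h)

/-- The lines as a finset. -/
noncomputable def Lf (L : Set (Finset α)) : Finset (Finset α) := (Set.toFinite L).toFinset

@[simp] lemma mem_Lf {l : Finset α} : l ∈ Lf L ↔ l ∈ L := (Set.toFinite L).mem_toFinset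

/-- Five lines through a point. -/
lemma card_through (hP : Plane L) (p : α) : ((Lf L).filter (fun l => p ∈ l)).card = 5 := by
  have h := Cfsg.Agent.Lib.Steiner.Counting.card_blocks_through hP.steiner (Lf L)
    (fun _ => mem_Lf) {p} (by simp)
  simp only [singleton_subset_iff, card_singleton, hP.card] at h
  norm_num at h
  omega

/-- Twenty-one lines. -/
lemma card_Lf (hP : Plane L) : (Lf L).card = 21 := by
  have h := Cfsg.Agent.Lib.Steiner.Counting.card_blocks_through hP.steiner (Lf L)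
    (fun _ => mem_Lf) ∅ (by simp)
  simp only [empty_subset, filter_true, card_empty, hP.card] at h
  norm_num [Nat.choose] at h
  omega

/-- The fan lemma. -/
lemma fan (hP : Plane L) {p : α} {A : Finset α} (hA : A.card = 5) (hpA : p ∉ A)
    (hno : ∀ l ∈ L, p ∈ l → ∀ x ∈ A, ∀ y ∈ A, x ∈ l → y ∈ l → x = y)
    {k : Finset α} (hk : k ∈ L) (hpk : p ∈ k) : ∃ x ∈ A, x ∈ k := by
  have hne : ∀ x ∈ A, p ≠ x := fun x hx h => hpA (h ▸ hx)
  have hinj : Set.InjOn (fun x => ln L p x) (A : Set α) := by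
    intro x hx y hy hxy
    have hx' : x ∈ A := hx
    have hy' : y ∈ A := hy
    apply hno (ln L p x) (ln_mem hP (hne x hx')) (left_mem_ln hP (hne x hx')) x hx' y hy'
      (right_mem_ln hP (hne x hx'))
    simp only at hxy
    rw [hxy]
    exact right_mem_ln hP (hne y hy')
  have himg : A.image (fun x => ln L p x) ⊆ (Lf L).filter (fun l => p ∈ l) := by
    intro l hl
    rw [mem_image] at hl
    obtain ⟨x, hx, rfl⟩ := hl
    rw [mem_filter, mem_Lf]
    exact ⟨ln_mem hP (hne x hx), left_mem_ln hP (hne x hx)⟩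
  have hcard : (A.image (fun x => ln L p x)).card = 5 := by
    rw [card_image_of_injOn hinj, hA]
  have heq := eq_of_subset_of_card_le himg (by rw [card_through hP, hcard])
  have hk' : k ∈ (Lf L).filter (fun l => p ∈ l) := by
    rw [mem_filter, mem_Lf]
    exact ⟨hk, hpk⟩
  rw [← heq, mem_image] at hk'
  obtain ⟨x, hx, rfl⟩ := hk'
  exact ⟨x, hx, right_mem_ln hP (hne x hx)⟩

/-- Two lines always meet. -/
lemma meet (hP : Plane L) {l l' : Finset α} (hl : l ∈ L) (hl' : l' ∈ L) : ∃ p, p ∈ l ∧ p ∈ l' := by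
  by_cases hdis : ∃ p, p ∈ l ∧ p ∈ l'
  · exact hdis
  push Not at hdis
  have hcard : 0 < l'.card := by rw [hP.card_line hl']; norm_num
  obtain ⟨p, hp⟩ := card_pos.1 hcard
  have hpl : p ∉ l := fun h => hdis p h hp
  obtain ⟨x, hx, hx'⟩ := fan hP (hP.card_line hl) hpl (by
    intro k hk hpk x hx y hy hxk hyk
    by_contra hxy
    exact hpl (by
      have := hP.line_unique hxy hk hl hxk hyk hx hy
      rw [← this]; exact hpk)) hl' hp
  exact absurd hx' (hdis x hx)

/-- A set is independent if every line meets it in at most two points. -/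
def Ind (L : Set (Finset α)) (S : Finset α) : Prop := ∀ l ∈ L, (l ∩ S).card ≤ 2

lemma Ind.mono {S T : Finset α} (hT : Ind L T) (h : S ⊆ T) : Ind L S := fun l hl =>
  (card_le_card (inter_subset_inter_left h)).trans (hT l hl)

lemma Ind.no_three {S : Finset α} (hS : Ind L S) {l : Finset α} (hl : l ∈ L) {x y z : α}
    (hx : x ∈ S) (hy : y ∈ S) (hz : z ∈ S) (hxy : x ≠ y) (hxz : x ≠ z) (hyz : y ≠ z)
    (hxl : x ∈ l) (hyl : y ∈ l) (hzl : z ∈ l) : False := by
  have h := hS l hl
  have h3 : ({x, y, z} : Finset α) ⊆ l ∩ S := by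
    intro t ht
    simp only [mem_insert, mem_singleton] at ht
    rcases ht with rfl | rfl | rfl <;> exact mem_inter.2 ⟨by assumption, by assumption⟩
  have h4 := card_le_card h3
  rw [card_eq_three.2 ⟨x, y, z, hxy, hxz, hyz, rfl⟩] at h4
  omega

lemma Ind.insert' {S : Finset α} (hS : Ind L S) {d : α}
    (hd : ∀ l ∈ L, ∀ p ∈ S, ∀ q ∈ S, p ≠ q → p ∈ l → q ∈ l → d ∉ l) : Ind L (insert d S) := by
  intro l hl
  by_cases hdl : d ∈ l
  · by_contra hcon
    push Not at hcon
    have h1 : l ∩ insert d S = insert d (l ∩ S) := by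
      rw [inter_insert_of_mem hdl]
    rw [h1] at hcon
    have h2 : 1 < (l ∩ S).card := by
      have := card_insert_le d (l ∩ S)
      omega
    obtain ⟨p, hp, q, hq, hpq⟩ := one_lt_card.1 h2
    rw [mem_inter] at hp hq
    exact hd l hl p hp.2 q hq.2 hpq hp.1 hq.1 hdl
  · rw [inter_insert_of_notMem hdl]
    exact hS l hl

/-- `x` lies on no line through two points of `Q`. -/
def Off (L : Set (Finset α)) (Q : Finset α) (x : α) : Prop :=
  ∀ l ∈ L, ∀ p ∈ Q, ∀ q ∈ Q, p ≠ q → p ∈ l → q ∈ l → x ∉ l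

lemma Off.not_mem (hP : Plane L) {Q : Finset α} (hQ : 2 ≤ Q.card) {x : α} (hx : Off L Q x) :
    x ∉ Q := by
  intro hxQ
  obtain ⟨q, hq, hqx⟩ : ∃ q ∈ Q, q ≠ x := by
    by_contra hcon
    push Not at hcon
    have : Q ⊆ {x} := by
      intro y hy
      rw [mem_singleton]
      exact hcon y hy
    have := card_le_card this
    rw [card_singleton] at this
    omega
  exact hx _ (ln_mem hP hqx.symm) x hxQ q hq hqx.symm (left_mem_ln hP hqx.symm)
    (right_mem_ln hP hqx.symm) (left_mem_ln hP hqx.symm)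

/-- The main local lemma: a line through one point of a quadrangle, missing the other three. -/
lemma off_on_line (hP : Plane L) {Q : Finset α} (hQ4 : Q.card = 4) (hQ : Ind L Q) {a : α}
    (ha : a ∈ Q) {l : Finset α} (hl : l ∈ L) (hal : a ∈ l) (hno : ∀ t ∈ Q, t ≠ a → t ∉ l) :
    ∃ x ∈ l, Off L Q x ∧ ∀ y ∈ l, Off L Q y → y = x := by
  classical
  have hcard3 : (Q.erase a).card = 3 := by
    rw [card_erase_of_mem ha, hQ4]
  obtain ⟨b, c, d, hbc, hbd, hcd, hQe⟩ := card_eq_three.1 hcard3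
  have hmem : ∀ t, t ∈ Q ↔ t = a ∨ t = b ∨ t = c ∨ t = d := by
    intro t
    have : t ∈ Q.erase a ↔ t = b ∨ t = c ∨ t = d := by
      rw [hQe]; simp
    constructor
    · intro ht
      by_cases hta : t = a
      · exact Or.inl hta
      · exact Or.inr (this.1 (mem_erase.2 ⟨hta, ht⟩))
    · rintro (rfl | ht)
      · exact ha
      · exact (mem_erase.1 (this.2 ht)).2
  have hbQ : b ∈ Q := (hmem b).2 (by simp)
  have hcQ : c ∈ Q := (hmem c).2 (by simp)
  have hdQ : d ∈ Q := (hmem d).2 (by simp)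
  have hab : a ≠ b := by
    have : b ∈ Q.erase a := by rw [hQe]; simp
    exact (mem_erase.1 this).1.symm
  have hac : a ≠ c := by
    have : c ∈ Q.erase a := by rw [hQe]; simp
    exact (mem_erase.1 this).1.symm
  have had : a ≠ d := by
    have : d ∈ Q.erase a := by rw [hQe]; simp
    exact (mem_erase.1 this).1.symm
  have hbl : b ∉ l := hno b hbQ hab.symm
  have hcl : c ∉ l := hno c hcQ hac.symm
  have hdl : d ∉ l := hno d hdQ had.symm
  -- the three diagonal lines and their meets with l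
  obtain ⟨P1, hP1l, hP1k⟩ := meet hP hl (ln_mem hP hbc)
  obtain ⟨P2, hP2l, hP2k⟩ := meet hP hl (ln_mem hP hbd)
  obtain ⟨P3, hP3l, hP3k⟩ := meet hP hl (ln_mem hP hcd)
  have hb1 := left_mem_ln hP hbc
  have hc1 := right_mem_ln hP hbc
  have hb2 := left_mem_ln hP hbd
  have hd2 := right_mem_ln hP hbd
  have hc3 := left_mem_ln hP hcd
  have hd3 := right_mem_ln hP hcd
  have hk1 := ln_mem hP hbc
  have hk2 := ln_mem hP hbd
  have hk3 := ln_mem hP hcd
  have hP1a : P1 ≠ a := by
    rintro rfl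
    exact hQ.no_three hk1 ha hbQ hcQ hab hac hbc hP1k hb1 hc1
  have hP2a : P2 ≠ a := by
    rintro rfl
    exact hQ.no_three hk2 ha hbQ hdQ hab had hbd hP2k hb2 hd2
  have hP3a : P3 ≠ a := by
    rintro rfl
    exact hQ.no_three hk3 ha hcQ hdQ hac had hcd hP3k hc3 hd3
  have hP12 : P1 ≠ P2 := by
    rintro rfl
    by_cases hb' : P1 = b
    · rw [hb'] at hP1l; exact hbl hP1l
    · have h := hP.line_unique hb' hk1 hk2 hP1k hb1 hP2k hb2
      rw [← h] at hd2
      exact hQ.no_three hk1 hbQ hcQ hdQ hbc hbd hcd hb1 hc1 hd2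
  have hP13 : P1 ≠ P3 := by
    rintro rfl
    by_cases hc' : P1 = c
    · rw [hc'] at hP1l; exact hcl hP1l
    · have h := hP.line_unique hc' hk1 hk3 hP1k hc1 hP3k hc3
      rw [← h] at hd3
      exact hQ.no_three hk1 hbQ hcQ hdQ hbc hbd hcd hb1 hc1 hd3
  have hP23 : P2 ≠ P3 := by
    rintro rfl
    by_cases hd' : P2 = d
    · rw [hd'] at hP2l; exact hdl hP2l
    · have h := hP.line_unique hd' hk2 hk3 hP2k hd2 hP3k hd3
      rw [← h] at hc3
      exact hQ.no_three hk2 hbQ hcQ hdQ hbc hbd hcd hb2 hc3 hd2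
  -- the remaining point
  set R : Finset α := {a, P1, P2, P3} with hR
  have hRsub : R ⊆ l := by
    intro t ht
    simp only [hR, mem_insert, mem_singleton] at ht
    rcases ht with rfl | rfl | rfl | rfl <;> assumption
  have hRcard : R.card = 4 := by
    rw [hR, card_insert_of_notMem, card_insert_of_notMem, card_pair hP23]
    · simp [hP12, hP13]
    · simp [hP1a.symm, hP2a.symm, hP3a.symm]
  have hsd : (l \ R).card = 1 := by
    rw [card_sdiff_of_subset hRsub, hP.card_line hl, hRcard]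
  obtain ⟨x, hx⟩ := card_eq_one.1 hsd
  have hxl : x ∈ l := by
    have : x ∈ l \ R := by rw [hx]; simp
    exact (mem_sdiff.1 this).1
  have hxR : x ∉ R := by
    have : x ∈ l \ R := by rw [hx]; simp
    exact (mem_sdiff.1 this).2
  have hxa : x ≠ a := by
    rintro rfl; exact hxR (by simp [hR])
  have hx1 : x ≠ P1 := by
    rintro rfl; exact hxR (by simp [hR])
  have hx2 : x ≠ P2 := by
    rintro rfl; exact hxR (by simp [hR])
  have hx3 : x ≠ P3 := by
    rintro rfl; exact hxR (by simp [hR])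
  have hx1' : x ∉ ln L b c := fun h => by
    have := hP.line_unique hx1 hl hk1 hxl hP1l h hP1k
    exact hbl (this ▸ hb1)
  have hx2' : x ∉ ln L b d := fun h => by
    have := hP.line_unique hx2 hl hk2 hxl hP2l h hP2k
    exact hbl (this ▸ hb2)
  have hx3' : x ∉ ln L c d := fun h => by
    have := hP.line_unique hx3 hl hk3 hxl hP3l h hP3k
    exact hcl (this ▸ hc3)
  -- a line through `a` and `x` is `l`
  have hxa' : ∀ k ∈ L, a ∈ k → x ∈ k → k = l := fun k hk h1 h2 =>
    hP.line_unique hxa hk hl h2 h1 hxl hal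
  have hOff : Off L Q x := by
    intro k hk p hp q hq hpq hpk hqk hxk
    have hbad1 : ∀ t, (t = b ∨ t = c ∨ t = d) → a ∈ k → t ∈ k → False := by
      intro t ht h1 h2
      have := hxa' k hk h1 hxk
      rw [this] at h2
      rcases ht with rfl | rfl | rfl
      · exact hbl h2
      · exact hcl h2
      · exact hdl h2
    have hbad2 : b ∈ k → c ∈ k → False := fun h1 h2 => by
      have := eq_ln hP hbc hk h1 h2
      rw [this] at hxk
      exact hx1' hxk
    have hbad3 : b ∈ k → d ∈ k → False := fun h1 h2 => by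
      have := eq_ln hP hbd hk h1 h2
      rw [this] at hxk
      exact hx2' hxk
    have hbad4 : c ∈ k → d ∈ k → False := fun h1 h2 => by
      have := eq_ln hP hcd hk h1 h2
      rw [this] at hxk
      exact hx3' hxk
    rcases (hmem p).1 hp with rfl | rfl | rfl | rfl <;> rcases (hmem q).1 hq with rfl | rfl | rfl | rfl
    all_goals first
      | exact hpq rfl
      | exact hbad1 _ (by simp) hpk hqk
      | exact hbad1 _ (by simp) hqk hpk
      | exact hbad2 hpk hqk
      | exact hbad2 hqk hpk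
      | exact hbad3 hpk hqk
      | exact hbad3 hqk hpk
      | exact hbad4 hpk hqk
      | exact hbad4 hqk hpk
  refine ⟨x, hxl, hOff, ?_⟩
  intro y hyl hy
  have hya : y ≠ a := by
    rintro rfl
    exact hy _ (ln_mem hP hab) y ha b hbQ hab (left_mem_ln hP hab) (right_mem_ln hP hab)
      (left_mem_ln hP hab)
  have hy1 : y ≠ P1 := by
    rintro rfl
    exact hy _ hk1 b hbQ c hcQ hbc hb1 hc1 hP1k
  have hy2 : y ≠ P2 := by
    rintro rfl
    exact hy _ hk2 b hbQ d hdQ hbd hb2 hd2 hP2k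
  have hy3 : y ≠ P3 := by
    rintro rfl
    exact hy _ hk3 c hcQ d hdQ hcd hc3 hd3 hP3k
  have hyR : y ∈ l \ R := by
    rw [mem_sdiff]
    refine ⟨hyl, ?_⟩
    simp only [hR, mem_insert, mem_singleton, not_or]
    exact ⟨hya, hy1, hy2, hy3⟩
  rw [hx, mem_singleton] at hyR
  exact hyR

/-- Two off points are not collinear with a point of the quadrangle. -/
lemma off_not_collinear (hP : Plane L) {Q : Finset α} (hQ4 : Q.card = 4) (hQ : Ind L Q) {x y p : α}
    (hx : Off L Q x) (hy : Off L Q y) (hxy : x ≠ y) (hp : p ∈ Q) {k : Finset α} (hk : k ∈ L)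
    (hpk : p ∈ k) (hxk : x ∈ k) : y ∉ k := by
  intro hyk
  have hno : ∀ t ∈ Q, t ≠ p → t ∉ k := by
    intro t ht htp htk
    exact hx k hk t ht p hp htp htk hpk hxk
  obtain ⟨w, _, _, huniq⟩ := off_on_line hP hQ4 hQ hp hk hpk hno
  exact hxy ((huniq x hxk hx).trans (huniq y hyk hy).symm)

/-- Exactly two off points. -/
lemma exists_two_off (hP : Plane L) {Q : Finset α} (hQ4 : Q.card = 4) (hQ : Ind L Q) :
    ∃ x y, x ≠ y ∧ Off L Q x ∧ Off L Q y ∧ ∀ z, Off L Q z → z = x ∨ z = y := by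
  classical
  have hpos : 0 < Q.card := by omega
  obtain ⟨a, ha⟩ := card_pos.1 hpos
  -- lines through a
  set Λ : Finset (Finset α) := (Lf L).filter (fun l => a ∈ l) with hΛ
  have hΛcard : Λ.card = 5 := card_through hP a
  set A : Finset (Finset α) := (Q.erase a).image (fun t => ln L a t) with hA
  have hne : ∀ t ∈ Q.erase a, a ≠ t := fun t ht => (mem_erase.1 ht).1.symm
  have hinj : Set.InjOn (fun t => ln L a t) (Q.erase a : Set α) := by
    intro t ht t' ht' htt
    by_contra hcon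
    have ht1 : t ∈ Q.erase a := ht
    have ht2 : t' ∈ Q.erase a := ht'
    simp only at htt
    have h2 : t' ∈ ln L a t := by rw [htt]; exact right_mem_ln hP (hne t' ht2)
    exact hQ.no_three (ln_mem hP (hne t ht1)) ha (mem_erase.1 ht1).2 (mem_erase.1 ht2).2
      (hne t ht1) (hne t' ht2) hcon (left_mem_ln hP (hne t ht1)) (right_mem_ln hP (hne t ht1)) h2
  have hAcard : A.card = 3 := by
    rw [hA, card_image_of_injOn hinj, card_erase_of_mem ha, hQ4]
  have hAsub : A ⊆ Λ := by
    intro l hl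
    rw [hA, mem_image] at hl
    obtain ⟨t, ht, rfl⟩ := hl
    rw [hΛ, mem_filter, mem_Lf]
    exact ⟨ln_mem hP (hne t ht), left_mem_ln hP (hne t ht)⟩
  have hRcard : (Λ \ A).card = 2 := by
    rw [card_sdiff_of_subset hAsub, hΛcard, hAcard]
  obtain ⟨l₁, l₂, hl12, hR⟩ := card_eq_two.1 hRcard
  have hmemR : ∀ l, l ∈ Λ \ A ↔ l = l₁ ∨ l = l₂ := by
    intro l; rw [hR]; simp
  -- a line in Λ \ A misses the other points of Q
  have hmiss : ∀ l ∈ Λ \ A, l ∈ L ∧ a ∈ l ∧ ∀ t ∈ Q, t ≠ a → t ∉ l := by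
    intro l hl
    rw [mem_sdiff, hΛ, mem_filter, mem_Lf] at hl
    refine ⟨hl.1.1, hl.1.2, fun t ht hta htl => hl.2 ?_⟩
    rw [hA, mem_image]
    refine ⟨t, mem_erase.2 ⟨hta, ht⟩, ?_⟩
    exact (eq_ln hP (Ne.symm hta) hl.1.1 hl.1.2 htl).symm
  have hl1mem : l₁ ∈ Λ \ A := (hmemR l₁).2 (Or.inl rfl)
  have hl2mem : l₂ ∈ Λ \ A := (hmemR l₂).2 (Or.inr rfl)
  obtain ⟨hl1L, hal1, hmiss1⟩ := hmiss l₁ hl1mem
  obtain ⟨hl2L, hal2, hmiss2⟩ := hmiss l₂ hl2mem
  obtain ⟨x, hxl, hxoff, hxu⟩ := off_on_line hP hQ4 hQ ha hl1L hal1 hmiss1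
  obtain ⟨y, hyl, hyoff, hyu⟩ := off_on_line hP hQ4 hQ ha hl2L hal2 hmiss2
  have hxa : x ≠ a := fun h => Off.not_mem hP (by omega) hxoff (h ▸ ha)
  refine ⟨x, y, ?_, hxoff, hyoff, ?_⟩
  · rintro rfl
    exact hl12 (hP.line_unique hxa hl1L hl2L hxl hal1 hyl hal2)
  · intro z hz
    have hza : a ≠ z := fun h => Off.not_mem hP (by omega) hz (h ▸ ha)
    have hzl : ln L a z ∈ Λ \ A := by
      rw [mem_sdiff, hΛ, mem_filter, mem_Lf]
      refine ⟨⟨ln_mem hP hza, left_mem_ln hP hza⟩, ?_⟩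
      intro hin
      rw [hA, mem_image] at hin
      obtain ⟨t, ht, hteq⟩ := hin
      have hta := hne t ht
      exact hz _ (ln_mem hP hta) a ha t (mem_erase.1 ht).2 hta (left_mem_ln hP hta)
        (right_mem_ln hP hta) (by rw [hteq]; exact right_mem_ln hP hza)
    rcases (hmemR _).1 hzl with h | h
    · left
      exact hxu z (by rw [← h]; exact right_mem_ln hP hza) hz
    · right
      exact hyu z (by rw [← h]; exact right_mem_ln hP hza) hz

/-- The hyperoval through a quadrangle. -/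
lemma hyperoval_of_two_off (hP : Plane L) {Q : Finset α} (hQ4 : Q.card = 4) (hQ : Ind L Q) {x y : α}
    (hxy : x ≠ y) (hx : Off L Q x) (hy : Off L Q y) :
    (insert x (insert y Q)).card = 6 ∧ Ind L (insert x (insert y Q)) := by
  have hxQ := Off.not_mem hP (by omega) hx
  have hyQ := Off.not_mem hP (by omega) hy
  constructor
  · rw [card_insert_of_notMem, card_insert_of_notMem hyQ, hQ4]
    simp [hxy, hxQ]
  · apply Ind.insert'
    · apply Ind.insert' hQ
      intro l hl p hp q hq hpq hpl hql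
      exact hy l hl p hp q hq hpq hpl hql
    · intro l hl p hp q hq hpq hpl hql hxl
      rw [mem_insert] at hp hq
      rcases hp with rfl | hp <;> rcases hq with rfl | hq
      · exact hpq rfl
      · exact off_not_collinear hP hQ4 hQ hx hy hxy hq hl hql hxl hpl
      · exact off_not_collinear hP hQ4 hQ hx hy hxy hp hl hpl hxl hql
      · exact hx l hl p hp q hq hpq hpl hql hxl

/-- Points of a hyperoval outside a quadrangle are off. -/
lemma off_of_mem_hyperoval {Q H : Finset α} (hQH : Q ⊆ H) (hH : Ind L H) {x : α} (hx : x ∈ H)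
    (hxQ : x ∉ Q) : Off L Q x := by
  intro l hl p hp q hq hpq hpl hql hxl
  exact hH.no_three hl (hQH hp) (hQH hq) hx hpq (fun h => hxQ (h ▸ hp)) (fun h => hxQ (h ▸ hq))
    hpl hql hxl

/-- Every quadrangle lies in a unique hyperoval. -/
theorem exists_unique_hyperoval (hP : Plane L) {Q : Finset α} (hQ4 : Q.card = 4) (hQ : Ind L Q) :
    ∃! H : Finset α, (H.card = 6 ∧ Ind L H) ∧ Q ⊆ H := by
  obtain ⟨x, y, hxy, hx, hy, hz⟩ := exists_two_off hP hQ4 hQ
  refine ⟨insert x (insert y Q), ⟨hyperoval_of_two_off hP hQ4 hQ hxy hx hy,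
    (subset_insert _ _).trans (subset_insert _ _)⟩, ?_⟩
  rintro H ⟨⟨hH6, hHi⟩, hQH⟩
  have hW := (hyperoval_of_two_off hP hQ4 hQ hxy hx hy).1
  apply eq_of_subset_of_card_le
  · intro u hu
    by_cases huQ : u ∈ Q
    · exact mem_insert_of_mem (mem_insert_of_mem huQ)
    · rcases hz u (off_of_mem_hyperoval hQH hHi hu huQ) with rfl | rfl
      · exact mem_insert_self _ _
      · exact mem_insert_of_mem (mem_insert_self _ _)
  · rw [hW, hH6]

/-- Quadrangles exist. -/
theorem exists_quadrangle (hP : Plane L) : ∃ Q : Finset α, Q.card = 4 ∧ Ind L Q := by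
  classical
  have hcard := hP.card
  obtain ⟨a, b, hab⟩ := Fintype.exists_pair_of_one_lt_card (by omega : 1 < Fintype.card α)
  have hexists : ∀ T : Finset α, T.card < 21 → ∃ x, x ∉ T := by
    intro T hT
    by_contra hcon
    push Not at hcon
    have : T = univ := eq_univ_of_forall hcon
    rw [this, card_univ] at hT
    omega
  obtain ⟨c, hc⟩ := hexists (ln L a b) (by rw [hP.card_line (ln_mem hP hab)]; norm_num)
  have hac : a ≠ c := fun h => hc (h ▸ left_mem_ln hP hab)
  have hbc : b ≠ c := fun h => hc (h ▸ right_mem_ln hP hab)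
  obtain ⟨d, hd⟩ := hexists (ln L a b ∪ ln L a c ∪ ln L b c) (by
    have h1 := card_union_le (ln L a b ∪ ln L a c) (ln L b c)
    have h2 := card_union_le (ln L a b) (ln L a c)
    rw [hP.card_line (ln_mem hP hab)] at h2
    rw [hP.card_line (ln_mem hP hac)] at h2
    rw [hP.card_line (ln_mem hP hbc)] at h1
    omega)
  simp only [mem_union, not_or] at hd
  obtain ⟨⟨hd1, hd2⟩, hd3⟩ := hd
  have had : a ≠ d := fun h => hd1 (h ▸ left_mem_ln hP hab)
  have hbd : b ≠ d := fun h => hd1 (h ▸ right_mem_ln hP hab)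
  have hcd : c ≠ d := fun h => hd2 (h ▸ right_mem_ln hP hac)
  have hS2 : Ind L ({a, b} : Finset α) := fun l _ =>
    (card_le_card inter_subset_right).trans (card_pair hab).le
  have hS3 : Ind L (insert c ({a, b} : Finset α)) := by
    apply Ind.insert' hS2
    intro l hl p hp q hq hpq hpl hql hcl
    simp only [mem_insert, mem_singleton] at hp hq
    rcases hp with rfl | rfl <;> rcases hq with rfl | rfl
    · exact hpq rfl
    · exact hc (eq_ln hP hab hl hpl hql ▸ hcl)
    · exact hc (eq_ln hP hab hl hql hpl ▸ hcl)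
    · exact hpq rfl
  have hS4 : Ind L (insert d (insert c ({a, b} : Finset α))) := by
    apply Ind.insert' hS3
    intro l hl p hp q hq hpq hpl hql hdl
    simp only [mem_insert, mem_singleton] at hp hq
    rcases hp with rfl | rfl | rfl <;> rcases hq with rfl | rfl | rfl
    · exact hpq rfl
    · exact hd2 (eq_ln hP hac hl hql hpl ▸ hdl)
    · exact hd3 (eq_ln hP hbc hl hql hpl ▸ hdl)
    · exact hd2 (eq_ln hP hac hl hpl hql ▸ hdl)
    · exact hpq rfl
    · exact hd1 (eq_ln hP hab hl hpl hql ▸ hdl)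
    · exact hd3 (eq_ln hP hbc hl hpl hql ▸ hdl)
    · exact hd1 (eq_ln hP hab hl hql hpl ▸ hdl)
    · exact hpq rfl
  refine ⟨_, ?_, hS4⟩
  rw [card_insert_of_notMem, card_insert_of_notMem, card_pair hab]
  · simp [hac.symm, hbc.symm]
  · simp [had.symm, hbd.symm, hcd.symm]

/-- Hyperovals exist. -/
theorem exists_hyperoval (hP : Plane L) : ∃ H : Finset α, H.card = 6 ∧ Ind L H := by
  obtain ⟨Q, hQ4, hQ⟩ := exists_quadrangle hP
  obtain ⟨H, ⟨h, _⟩, _⟩ := exists_unique_hyperoval hP hQ4 hQ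
  exact ⟨H, h⟩

/-- A line through a point of a hyperoval contains a second point of it. -/
lemma hyperoval_second (hP : Plane L) {H : Finset α} (hH6 : H.card = 6) (hH : Ind L H) {a : α}
    (ha : a ∈ H) {k : Finset α} (hk : k ∈ L) (hak : a ∈ k) : ∃ b ∈ H, b ≠ a ∧ b ∈ k := by
  have hA : (H.erase a).card = 5 := by rw [card_erase_of_mem ha, hH6]
  obtain ⟨x, hx, hxk⟩ := fan hP hA (notMem_erase a H) (by
    intro l hl hal x hx y hy hxl hyl
    by_contra hxy
    have hx' := mem_erase.1 hx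
    have hy' := mem_erase.1 hy
    exact hH.no_three hl ha hx'.2 hy'.2 hx'.1.symm hy'.1.symm hxy hal hxl hyl) hk hak
  exact ⟨x, (mem_erase.1 hx).2, (mem_erase.1 hx).1, hxk⟩

end Cfsg.Agent.Lib.Plane4.Basic
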