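import Mathlib

set_option autoImplicit false

namespace Cfsg.Agent.Lib.Plane4.Model

open Finset

/-- The fifteen synthemes of six points, as fixed-point-free involutions. -/
def syn : Fin 15 → Fin 6 → Fin 6 := ![
  ![1,0,3,2,5,4],
  ![1,0,4,5,2,3],
  ![1,0,5,4,3,2],
  ![2,3,0,1,5,4],
  ![2,4,0,5,1,3],
  ![2,5,0,4,3,1],
  ![3,2,1,0,5,4],
  ![3,4,5,0,1,2],
  ![3,5,4,0,2,1],
  ![4,2,1,5,0,3],
  ![4,3,5,1,0,2],
  ![4,5,3,2,0,1],
  ![5,2,1,4,3,0],
  ![5,3,4,1,2,0],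
  ![5,4,3,2,1,0]]

/-- The six totals. -/
def totals : List (Finset (Fin 15)) := [
    {0, 4, 8, 10, 12},
    {0, 5, 7, 9, 13},
    {1, 3, 7, 11, 12},
    {1, 5, 6, 10, 14},
    {2, 3, 8, 9, 14},
    {2, 4, 6, 11, 13}]

/-- The twenty-one lines of the model. -/
def lines0 : List (Finset (Fin 6 ⊕ Fin 15)) := [
    {.inl 0, .inl 1, .inr 0, .inr 1, .inr 2},
    {.inl 0, .inl 2, .inr 3, .inr 4, .inr 5},
    {.inl 0, .inl 3, .inr 6, .inr 7, .inr 8},
    {.inl 0, .inl 4, .inr 9, .inr 10, .inr 11},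
    {.inl 0, .inl 5, .inr 12, .inr 13, .inr 14},
    {.inl 1, .inl 2, .inr 6, .inr 9, .inr 12},
    {.inl 1, .inl 3, .inr 3, .inr 10, .inr 13},
    {.inl 1, .inl 4, .inr 4, .inr 7, .inr 14},
    {.inl 1, .inl 5, .inr 5, .inr 8, .inr 11},
    {.inl 2, .inl 3, .inr 0, .inr 11, .inr 14},
    {.inl 2, .inl 4, .inr 1, .inr 8, .inr 13},
    {.inl 2, .inl 5, .inr 2, .inr 7, .inr 10},
    {.inl 3, .inl 4, .inr 2, .inr 5, .inr 12},
    {.inl 3, .inl 5, .inr 1, .inr 4, .inr 9},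
    {.inl 4, .inl 5, .inr 0, .inr 3, .inr 6},
    {.inr 0, .inr 4, .inr 8, .inr 10, .inr 12},
    {.inr 0, .inr 5, .inr 7, .inr 9, .inr 13},
    {.inr 1, .inr 3, .inr 7, .inr 11, .inr 12},
    {.inr 1, .inr 5, .inr 6, .inr 10, .inr 14},
    {.inr 2, .inr 3, .inr 8, .inr 9, .inr 14},
    {.inr 2, .inr 4, .inr 6, .inr 11, .inr 13}]


/-- Two synthemes with no common duad. -/
def disj (x y : Fin 15) : Prop := ∀ i, syn x i ≠ syn y i

instance (x y : Fin 15) : Decidable (disj x y) := by unfold disj; infer_instance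

/-- Final level of the exhaustion. -/
def E6 (a0 a1 a2 a3 a4 a5 : Fin 6) : Prop :=
  ∃ k : Fin 15, syn k 0 = a0 ∧ syn k 1 = a1 ∧ syn k 2 = a2 ∧ syn k 3 = a3 ∧ syn k 4 = a4 ∧ syn k 5 = a5

instance (a0 a1 a2 a3 a4 a5 : Fin 6) : Decidable (E6 a0 a1 a2 a3 a4 a5) := by
  unfold E6; infer_instance

/-- Level 5 of the exhaustion. -/
def E5 (a0 a1 a2 a3 a4 : Fin 6) : Prop :=
  ∀ a5 : Fin 6, a5 ≠ 5 → (a0 = 5 → a5 = 0) → (a5 = 0 → a0 = 5) → (a1 = 5 → a5 = 1) → (a5 = 1 → a1 = 5) →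
      (a2 = 5 → a5 = 2) → (a5 = 2 → a2 = 5) → (a3 = 5 → a5 = 3) → (a5 = 3 → a3 = 5) →
      (a4 = 5 → a5 = 4) → (a5 = 4 → a4 = 5) → E6 a0 a1 a2 a3 a4 a5

instance (a0 a1 a2 a3 a4 : Fin 6) : Decidable (E5 a0 a1 a2 a3 a4) := by
  unfold E5; infer_instance

/-- Level 4 of the exhaustion. -/
def E4 (a0 a1 a2 a3 : Fin 6) : Prop :=
  ∀ a4 : Fin 6, a4 ≠ 4 → (a0 = 4 → a4 = 0) → (a4 = 0 → a0 = 4) → (a1 = 4 → a4 = 1) → (a4 = 1 → a1 = 4) →
      (a2 = 4 → a4 = 2) → (a4 = 2 → a2 = 4) → (a3 = 4 → a4 = 3) → (a4 = 3 → a3 = 4) → E5 a0 a1 a2 a3 a4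

instance (a0 a1 a2 a3 : Fin 6) : Decidable (E4 a0 a1 a2 a3) := by
  unfold E4; infer_instance

/-- Level 3 of the exhaustion. -/
def E3 (a0 a1 a2 : Fin 6) : Prop :=
  ∀ a3 : Fin 6, a3 ≠ 3 → (a0 = 3 → a3 = 0) → (a3 = 0 → a0 = 3) → (a1 = 3 → a3 = 1) → (a3 = 1 → a1 = 3) →
      (a2 = 3 → a3 = 2) → (a3 = 2 → a2 = 3) → E4 a0 a1 a2 a3

instance (a0 a1 a2 : Fin 6) : Decidable (E3 a0 a1 a2) := by
  unfold E3; infer_instance

/-- Level 2 of the exhaustion. -/
def E2 (a0 a1 : Fin 6) : Prop :=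
  ∀ a2 : Fin 6, a2 ≠ 2 → (a0 = 2 → a2 = 0) → (a2 = 0 → a0 = 2) → (a1 = 2 → a2 = 1) → (a2 = 1 → a1 = 2) →
    E3 a0 a1 a2

instance (a0 a1 : Fin 6) : Decidable (E2 a0 a1) := by
  unfold E2; infer_instance

/-- Every fixed-point-free involution of six points is listed. -/
theorem syn_exhaust_aux : ∀ a0 : Fin 6, a0 ≠ 0 → ∀ a1 : Fin 6, a1 ≠ 1 →
    (a0 = 1 → a1 = 0) → (a1 = 0 → a0 = 1) → E2 a0 a1 := by
  decide +kernel

theorem totals_exhaust : ∀ x1 x2 : Fin 15, disj x1 x2 → ∀ x3 : Fin 15, disj x1 x3 → disj x2 x3 →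
    ∀ x4 : Fin 15, disj x1 x4 → disj x2 x4 → disj x3 x4 →
    ∀ x5 : Fin 15, disj x1 x5 → disj x2 x5 → disj x3 x5 → disj x4 x5 →
    totals.any (fun t => decide (x1 ∈ t) && decide (x2 ∈ t) && decide (x3 ∈ t) && decide (x4 ∈ t) && decide (x5 ∈ t)) = true := by
  decide +kernel

theorem lines0_meet_b : lines0.all (fun t => lines0.all (fun t' => decide (t = t') || decide ((t ∩ t').card ≤ 1))) = true := by
  decide +kernel

theorem lines0_card_b : lines0.all (fun t => decide (t.card = 5)) = true := by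
  decide +kernel

/-- Number of independent 4-sets of the model. -/
theorem model_count : ((powersetCard 4 (univ : Finset (Fin 6 ⊕ Fin 15))).filter
    (fun S => lines0.all (fun l => decide ((l ∩ S).card ≤ 2)) = true)).card = 2520 := by
  decide +kernel

/-- The secant through two of the six points. -/
def secantF (i j : Fin 6) : Finset (Fin 6 ⊕ Fin 15) :=
  {.inl i, .inl j} ∪ (univ.filter (fun k => syn k i = j)).image .inr

theorem secant_mem : ∀ i j : Fin 6, i ≠ j → (secantF i j).card = 5 ∧ secantF i j ∈ lines0 := by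
  decide +kernel

theorem totals_card_b : totals.all (fun t => decide (t.card = 5)) = true := by
  decide +kernel

theorem totals_image_b : totals.all (fun t => decide (t.image Sum.inr ∈ lines0)) = true := by
  decide +kernel

theorem totals_card {t : Finset (Fin 15)} (ht : t ∈ totals) : t.card = 5 := by
  have := List.all_eq_true.1 totals_card_b t ht
  simpa using this

theorem totals_image {t : Finset (Fin 15)} (ht : t ∈ totals) : t.image Sum.inr ∈ lines0 := by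
  have := List.all_eq_true.1 totals_image_b t ht
  simpa using this

theorem lines0_card {t : Finset (Fin 6 ⊕ Fin 15)} (ht : t ∈ lines0) : t.card = 5 := by
  have := List.all_eq_true.1 lines0_card_b t ht
  simpa using this

/-- Two points lie on at most one line of the model. -/
theorem lines0_unique {t t' : Finset (Fin 6 ⊕ Fin 15)} (ht : t ∈ lines0) (ht' : t' ∈ lines0)
    {x y : Fin 6 ⊕ Fin 15} (hxy : x ≠ y) (hx : x ∈ t) (hy : y ∈ t) (hx' : x ∈ t') (hy' : y ∈ t') :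
    t = t' := by
  by_contra hne
  have h1 := List.all_eq_true.1 (List.all_eq_true.1 lines0_meet_b t ht) t' ht'
  simp only [Bool.or_eq_true, decide_eq_true_eq] at h1
  rcases h1 with h1 | h1
  · exact hne h1
  · have h2 : ({x, y} : Finset (Fin 6 ⊕ Fin 15)) ⊆ t ∩ t' := by
      intro a ha
      simp only [mem_insert, mem_singleton] at ha
      rcases ha with rfl | rfl <;> simp [*]
    have h3 := card_le_card h2
    rw [card_pair hxy] at h3
    omega

/-- Exhaustion of the fixed-point-free involutions. -/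
theorem syn_exhaust (m : Fin 6 → Fin 6) (hne : ∀ i, m i ≠ i) (hinv : ∀ i, m (m i) = i) :
    ∃ k : Fin 15, ∀ i, syn k i = m i := by
  have C : ∀ i j, m i = j → m j = i := by
    intro i j h
    rw [← h, hinv]
  have h2 := syn_exhaust_aux (m 0) (hne 0) (m 1) (hne 1) (C 0 1) (C 1 0)
  have h3 := h2 (m 2) (hne 2) (C 0 2) (C 2 0) (C 1 2) (C 2 1)
  have h4 := h3 (m 3) (hne 3) (C 0 3) (C 3 0) (C 1 3) (C 3 1) (C 2 3) (C 3 2)
  have h5 := h4 (m 4) (hne 4) (C 0 4) (C 4 0) (C 1 4) (C 4 1) (C 2 4) (C 4 2) (C 3 4) (C 4 3)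
  have h6 := h5 (m 5) (hne 5) (C 0 5) (C 5 0) (C 1 5) (C 5 1) (C 2 5) (C 5 2) (C 3 5) (C 5 3)
    (C 4 5) (C 5 4)
  obtain ⟨k, h0, h1, h2', h3', h4', h5'⟩ := h6
  refine ⟨k, fun i => ?_⟩
  fin_cases i
  · exact h0
  · exact h1
  · exact h2'
  · exact h3'
  · exact h4'
  · exact h5'

/-- Five pairwise disjoint synthemes form a total. -/
theorem exists_total {K : Finset (Fin 15)} (hK : K.card = 5)
    (hdisj : ∀ x ∈ K, ∀ y ∈ K, x ≠ y → disj x y) : K ∈ totals := by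
  obtain ⟨x1, K1, h1, rfl, hK1⟩ := card_eq_succ.1 hK
  obtain ⟨x2, K2, h2, rfl, hK2⟩ := card_eq_succ.1 hK1
  obtain ⟨x3, K3, h3, rfl, hK3⟩ := card_eq_succ.1 hK2
  obtain ⟨x4, K4, h4, rfl, hK4⟩ := card_eq_succ.1 hK3
  obtain ⟨x5, K5, h5, rfl, hK5⟩ := card_eq_succ.1 hK4
  have hK0 : K5 = ∅ := card_eq_zero.1 hK5
  subst hK0
  simp only [mem_insert, mem_singleton, not_or, notMem_empty, not_false_eq_true, and_true] at h1 h2 h3 h4 h5
  have D : ∀ x y, x ≠ y → x ∈ (insert x1 (insert x2 (insert x3 (insert x4 (insert x5 ∅)))) : Finset (Fin 15)) →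
      y ∈ (insert x1 (insert x2 (insert x3 (insert x4 (insert x5 ∅)))) : Finset (Fin 15)) → disj x y :=
    fun x y h hx hy => hdisj x hx y hy h
  have hany := totals_exhaust x1 x2 (D _ _ h1.1 (by simp) (by simp))
    x3 (D _ _ h1.2.1 (by simp) (by simp)) (D _ _ h2.1 (by simp) (by simp))
    x4 (D _ _ h1.2.2.1 (by simp) (by simp)) (D _ _ h2.2.1 (by simp) (by simp)) (D _ _ h3.1 (by simp) (by simp))
    x5 (D _ _ h1.2.2.2 (by simp) (by simp)) (D _ _ h2.2.2 (by simp) (by simp)) (D _ _ h3.2 (by simp) (by simp))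
    (D _ _ h4 (by simp) (by simp))
  obtain ⟨t, ht, hall⟩ := List.any_eq_true.1 hany
  simp only [Bool.and_eq_true, decide_eq_true_eq] at hall
  obtain ⟨⟨⟨⟨h1t, h2t⟩, h3t⟩, h4t⟩, h5t⟩ := hall
  have hsub : (insert x1 (insert x2 (insert x3 (insert x4 (insert x5 ∅)))) : Finset (Fin 15)) ⊆ t := by
    intro a ha
    simp only [mem_insert, notMem_empty, or_false] at ha
    rcases ha with rfl | rfl | rfl | rfl | rfl <;> assumption
  have heq := eq_of_subset_of_card_le hsub (by rw [hK, totals_card ht])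
  rw [heq]
  exact ht

end Cfsg.Agent.Lib.Plane4.Model
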