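import Mathlib
import Cfsg.Prelude.Def_Sporadic_a
import Cfsg.Agent.Lib.Plane4.Basic
import Cfsg.Agent.Lib.Plane4.Model

/-!
Reconstruction of a plane of order 4 from a labelled hyperoval (Sylvester's duads and synthemes).
-/

set_option autoImplicit false
set_option linter.unusedSectionVars false

namespace Cfsg.Agent.Lib.Plane4.Classify

open Finset Cfsg.Agent.Lib.Plane4.Basic Cfsg.Agent.Lib.Plane4.Model

variable {α : Type*} [Fintype α] [DecidableEq α] {L : Set (Finset α)} {H : Finset α}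

/-- The labelled points of the hyperoval. -/
def pt (ι : ↥H ≃ Fin 6) (i : Fin 6) : α := (ι.symm i : α)

lemma pt_mem (ι : ↥H ≃ Fin 6) (i : Fin 6) : pt ι i ∈ H := (ι.symm i).2

lemma pt_inj (ι : ↥H ≃ Fin 6) : Function.Injective (pt ι) := fun _ _ h =>
  ι.symm.injective (Subtype.ext h)

lemma pt_iota (ι : ↥H ≃ Fin 6) (a : ↥H) : pt ι (ι a) = a := by
  simp [pt]

lemma iota_pt (ι : ↥H ≃ Fin 6) (i : Fin 6) : ι ⟨pt ι i, pt_mem ι i⟩ = i := by
  simp [pt]

lemma exists_partner (hP : Plane L) (hH6 : H.card = 6) (hH : Ind L H) (ι : ↥H ≃ Fin 6) {p : α}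
    (hp : p ∉ H) (i : Fin 6) : ∃ j, j ≠ i ∧ p ∈ ln L (pt ι i) (pt ι j) := by
  have ha := pt_mem ι i
  have hap : pt ι i ≠ p := fun h => hp (h ▸ ha)
  obtain ⟨b, hb, hba, hbk⟩ := hyperoval_second hP hH6 hH ha (ln_mem hP hap) (left_mem_ln hP hap)
  refine ⟨ι ⟨b, hb⟩, ?_, ?_⟩
  · intro h
    apply hba
    have := pt_iota ι ⟨b, hb⟩
    rw [h] at this
    exact this.symm
  · rw [pt_iota ι ⟨b, hb⟩]
    have h1 := eq_ln hP hba.symm (ln_mem hP hap) (left_mem_ln hP hap) hbk
    rw [← h1]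
    exact right_mem_ln hP hap

lemma partner_unique (hP : Plane L) (hH : Ind L H) (ι : ↥H ≃ Fin 6) {p : α} (hp : p ∉ H)
    {i j j' : Fin 6} (hj : j ≠ i) (hj' : j' ≠ i) (h : p ∈ ln L (pt ι i) (pt ι j))
    (h' : p ∈ ln L (pt ι i) (pt ι j')) : j = j' := by
  by_contra hne
  have ha := pt_mem ι i
  have hap : pt ι i ≠ p := fun h => hp (h ▸ ha)
  have hij : pt ι i ≠ pt ι j := fun h => hj (pt_inj ι h).symm
  have hij' : pt ι i ≠ pt ι j' := fun h => hj' (pt_inj ι h).symm
  have hjj : pt ι j ≠ pt ι j' := fun h => hne (pt_inj ι h)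
  have heq := hP.line_unique hap (ln_mem hP hij) (ln_mem hP hij') (left_mem_ln hP hij) h
    (left_mem_ln hP hij') h'
  have h3 : pt ι j' ∈ ln L (pt ι i) (pt ι j) := by
    rw [heq]; exact right_mem_ln hP hij'
  exact hH.no_three (ln_mem hP hij) ha (pt_mem ι j) (pt_mem ι j') hij hij' hjj
    (left_mem_ln hP hij) (right_mem_ln hP hij) h3

open Classical in
/-- The syntheme of a point off the hyperoval. -/
noncomputable def mm (L : Set (Finset α)) (ι : ↥H ≃ Fin 6) (p : α) (i : Fin 6) : Fin 6 :=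
  if h : ∃ j, j ≠ i ∧ p ∈ ln L (pt ι i) (pt ι j) then h.choose else i

lemma mm_spec (hP : Plane L) (hH6 : H.card = 6) (hH : Ind L H) (ι : ↥H ≃ Fin 6) {p : α}
    (hp : p ∉ H) (i : Fin 6) : mm L ι p i ≠ i ∧ p ∈ ln L (pt ι i) (pt ι (mm L ι p i)) := by
  have hex := exists_partner hP hH6 hH ι hp i
  unfold mm
  rw [dif_pos hex]
  exact hex.choose_spec

lemma mm_eq (hP : Plane L) (hH6 : H.card = 6) (hH : Ind L H) (ι : ↥H ≃ Fin 6) {p : α}
    (hp : p ∉ H) {i j : Fin 6} (hj : j ≠ i) (h : p ∈ ln L (pt ι i) (pt ι j)) : mm L ι p i = j :=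
  partner_unique hP hH ι hp (mm_spec hP hH6 hH ι hp i).1 hj (mm_spec hP hH6 hH ι hp i).2 h

lemma mm_invol (hP : Plane L) (hH6 : H.card = 6) (hH : Ind L H) (ι : ↥H ≃ Fin 6) {p : α}
    (hp : p ∉ H) (i : Fin 6) : mm L ι p (mm L ι p i) = i := by
  have h := mm_spec hP hH6 hH ι hp i
  apply mm_eq hP hH6 hH ι hp h.1.symm
  have hne : pt ι i ≠ pt ι (mm L ι p i) := fun hh => h.1 (pt_inj ι hh).symm
  rw [← ln_comm hP hne]
  exact h.2

lemma mm_injective (hP : Plane L) (hH6 : H.card = 6) (hH : Ind L H) (ι : ↥H ≃ Fin 6) {p q : α}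
    (hp : p ∉ H) (hq : q ∉ H) (h : ∀ i, mm L ι p i = mm L ι q i) : p = q := by
  by_contra hne
  set j₀ := mm L ι p 0 with hj₀
  have h0 : j₀ ≠ 0 := (mm_spec hP hH6 hH ι hp 0).1
  -- a third index
  obtain ⟨i₁, hi₁0, hi₁j⟩ : ∃ i₁ : Fin 6, i₁ ≠ 0 ∧ i₁ ≠ j₀ := by
    by_contra hcon
    push Not at hcon
    have h2 : (1 : Fin 6) = j₀ := hcon 1 (by decide)
    have h3 : (2 : Fin 6) = j₀ := hcon 2 (by decide)
    exact absurd (h2.trans h3.symm) (by decide)
  set j₁ := mm L ι p i₁ with hj₁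
  have hA1 := (mm_spec hP hH6 hH ι hp 0).2
  have hA2 := (mm_spec hP hH6 hH ι hq 0).2
  have hB1 := (mm_spec hP hH6 hH ι hp i₁).2
  have hB2 := (mm_spec hP hH6 hH ι hq i₁).2
  rw [← h 0] at hA2
  rw [← h i₁] at hB2
  have hne0 : pt ι 0 ≠ pt ι j₀ := fun hh => h0 (pt_inj ι hh).symm
  have hj1ne : j₁ ≠ i₁ := (mm_spec hP hH6 hH ι hp i₁).1
  have hne1 : pt ι i₁ ≠ pt ι j₁ := fun hh => hj1ne (pt_inj ι hh).symm
  have heq := hP.line_unique hne (ln_mem hP hne0) (ln_mem hP hne1) hA1 hA2 hB1 hB2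
  have h3 : pt ι i₁ ∈ ln L (pt ι 0) (pt ι j₀) := by
    rw [heq]; exact left_mem_ln hP hne1
  exact hH.no_three (ln_mem hP hne0) (pt_mem ι 0) (pt_mem ι j₀) (pt_mem ι i₁) hne0
    (fun hh => hi₁0 (pt_inj ι hh).symm) (fun hh => hi₁j (pt_inj ι hh).symm)
    (left_mem_ln hP hne0) (right_mem_ln hP hne0) h3

open Classical in
/-- The index of the syntheme of a point. -/
noncomputable def idx (L : Set (Finset α)) (ι : ↥H ≃ Fin 6) (p : α) : Fin 15 :=
  if h : ∃ k, ∀ i, syn k i = mm L ι p i then h.choose else 0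

lemma idx_spec (hP : Plane L) (hH6 : H.card = 6) (hH : Ind L H) (ι : ↥H ≃ Fin 6) {p : α}
    (hp : p ∉ H) (i : Fin 6) : syn (idx L ι p) i = mm L ι p i := by
  have hex := syn_exhaust (mm L ι p) (fun i => (mm_spec hP hH6 hH ι hp i).1)
    (mm_invol hP hH6 hH ι hp)
  unfold idx
  rw [dif_pos hex]
  exact hex.choose_spec i

/-- The coordinate map. -/
noncomputable def ee (L : Set (Finset α)) (ι : ↥H ≃ Fin 6) (p : α) : Fin 6 ⊕ Fin 15 :=
  if h : p ∈ H then .inl (ι ⟨p, h⟩) else .inr (idx L ι p)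

lemma ee_of_mem (L : Set (Finset α)) (ι : ↥H ≃ Fin 6) {p : α} (h : p ∈ H) :
    ee L ι p = .inl (ι ⟨p, h⟩) := dif_pos h

lemma ee_of_not_mem (L : Set (Finset α)) (ι : ↥H ≃ Fin 6) {p : α} (h : p ∉ H) :
    ee L ι p = .inr (idx L ι p) := dif_neg h

lemma ee_injective (hP : Plane L) (hH6 : H.card = 6) (hH : Ind L H) (ι : ↥H ≃ Fin 6) :
    Function.Injective (ee L ι) := by
  intro p q hpq
  by_cases hp : p ∈ H <;> by_cases hq : q ∈ H
  · rw [ee_of_mem L ι hp, ee_of_mem L ι hq] at hpq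
    have := ι.injective (Sum.inl.inj hpq)
    exact congrArg Subtype.val this
  · rw [ee_of_mem L ι hp, ee_of_not_mem L ι hq] at hpq
    cases hpq
  · rw [ee_of_not_mem L ι hp, ee_of_mem L ι hq] at hpq
    cases hpq
  · rw [ee_of_not_mem L ι hp, ee_of_not_mem L ι hq] at hpq
    have h := Sum.inr.inj hpq
    apply mm_injective hP hH6 hH ι hp hq
    intro i
    rw [← idx_spec hP hH6 hH ι hp i, ← idx_spec hP hH6 hH ι hq i, h]

lemma card_model : Fintype.card (Fin 6 ⊕ Fin 15) = 21 := by simp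

lemma ee_bijective (hP : Plane L) (hH6 : H.card = 6) (hH : Ind L H) (ι : ↥H ≃ Fin 6) :
    Function.Bijective (ee L ι) :=
  (Fintype.bijective_iff_injective_and_card _).2 ⟨ee_injective hP hH6 hH ι, by rw [hP.card, card_model]⟩

/-- The image of a secant is a secant. -/
lemma image_secant (hP : Plane L) (hH6 : H.card = 6) (hH : Ind L H) (ι : ↥H ≃ Fin 6) {l : Finset α}
    (hl : l ∈ L) {i j : Fin 6} (hij : i ≠ j) (hi : pt ι i ∈ l) (hj : pt ι j ∈ l) :
    l.image (ee L ι) = secantF i j := by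
  have hinj := ee_injective hP hH6 hH ι
  have hptne : pt ι i ≠ pt ι j := fun h => hij (pt_inj ι h)
  have hsub : l.image (ee L ι) ⊆ secantF i j := by
    intro x hx
    rw [mem_image] at hx
    obtain ⟨p, hp, rfl⟩ := hx
    by_cases hpH : p ∈ H
    · -- p is one of the two points
      have h1 : p = pt ι i ∨ p = pt ι j := by
        by_contra hcon
        push Not at hcon
        exact hH.no_three hl (pt_mem ι i) (pt_mem ι j) hpH hptne (Ne.symm hcon.1) (Ne.symm hcon.2)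
          hi hj hp
      rw [ee_of_mem L ι hpH]
      rcases h1 with rfl | rfl
      · rw [iota_pt]; simp [secantF]
      · rw [iota_pt]; simp [secantF]
    · rw [ee_of_not_mem L ι hpH]
      have h2 : p ∈ ln L (pt ι i) (pt ι j) := by
        rw [← eq_ln hP hptne hl hi hj]
        exact hp
      have h3 := mm_eq hP hH6 hH ι hpH (Ne.symm hij) h2
      have h4 := idx_spec hP hH6 hH ι hpH i
      rw [h3] at h4
      simp only [secantF, mem_union, mem_image, mem_filter, mem_univ, true_and]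
      exact Or.inr ⟨_, h4, rfl⟩
  have hc := (secant_mem i j hij).1
  apply eq_of_subset_of_card_le hsub
  rw [card_image_of_injective _ hinj, hP.card_line hl, hc]

/-- The image of an external line is a total. -/
lemma image_external (hP : Plane L) (hH6 : H.card = 6) (hH : Ind L H) (ι : ↥H ≃ Fin 6) {l : Finset α}
    (hl : l ∈ L) (hlH : ∀ p ∈ l, p ∉ H) : l.image (ee L ι) ∈ lines0 := by
  classical
  have hinj := ee_injective hP hH6 hH ι
  set K : Finset (Fin 15) := l.image (idx L ι) with hK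
  have hidxinj : Set.InjOn (idx L ι) (l : Set α) := by
    intro p hp q hq hpq
    apply mm_injective hP hH6 hH ι (hlH p hp) (hlH q hq)
    intro i
    rw [← idx_spec hP hH6 hH ι (hlH p hp) i, ← idx_spec hP hH6 hH ι (hlH q hq) i, hpq]
  have hKcard : K.card = 5 := by
    rw [hK, card_image_of_injOn hidxinj, hP.card_line hl]
  have hdisj : ∀ x ∈ K, ∀ y ∈ K, x ≠ y → disj x y := by
    intro x hx y hy hxy i heq
    rw [hK, mem_image] at hx hy
    obtain ⟨p, hp, rfl⟩ := hx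
    obtain ⟨q, hq, rfl⟩ := hy
    have hpq : p ≠ q := by
      rintro rfl
      exact hxy rfl
    rw [idx_spec hP hH6 hH ι (hlH p hp), idx_spec hP hH6 hH ι (hlH q hq)] at heq
    have h1 := mm_spec hP hH6 hH ι (hlH p hp) i
    have h2 := mm_spec hP hH6 hH ι (hlH q hq) i
    rw [← heq] at h2
    have hne : pt ι i ≠ pt ι (mm L ι p i) := fun hh => h1.1 (pt_inj ι hh).symm
    have h3 := hP.line_unique hpq hl (ln_mem hP hne) hp hq h1.2 h2.2
    apply hlH _ (h3 ▸ left_mem_ln hP hne)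
    exact pt_mem ι i
  have hKt := exists_total hKcard hdisj
  have himg : l.image (ee L ι) = K.image Sum.inr := by
    rw [hK, image_image]
    apply image_congr
    intro p hp
    exact ee_of_not_mem L ι (hlH p hp)
  rw [himg]
  exact totals_image hKt

/-- The image of a line is a line of the model. -/
lemma image_line (hP : Plane L) (hH6 : H.card = 6) (hH : Ind L H) (ι : ↥H ≃ Fin 6) {l : Finset α}
    (hl : l ∈ L) : l.image (ee L ι) ∈ lines0 := by
  by_cases hex : ∃ a ∈ l, a ∈ H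
  · obtain ⟨a, hal, haH⟩ := hex
    obtain ⟨b, hbH, hba, hbl⟩ := hyperoval_second hP hH6 hH haH hl hal
    have hij : ι ⟨a, haH⟩ ≠ ι ⟨b, hbH⟩ := fun h => hba (congrArg Subtype.val (ι.injective h)).symm
    rw [image_secant hP hH6 hH ι hl hij (by rw [pt_iota]; exact hal) (by rw [pt_iota]; exact hbl)]
    exact (secant_mem _ _ hij).2
  · push Not at hex
    exact image_external hP hH6 hH ι hl hex

/-- **Classification**: a plane with a labelled hyperoval is isomorphic to the model. -/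
theorem classify (hP : Plane L) (hH6 : H.card = 6) (hH : Ind L H) (ι : ↥H ≃ Fin 6) :
    ∃ e : α ≃ Fin 6 ⊕ Fin 15, (∀ p : ↥H, e p = .inl (ι p)) ∧
      ∀ t : Finset (Fin 6 ⊕ Fin 15), t ∈ (fun b : Finset α => b.image e) '' L ↔ t ∈ lines0 := by
  let e : α ≃ Fin 6 ⊕ Fin 15 := Equiv.ofBijective (ee L ι) (ee_bijective hP hH6 hH ι)
  have he : ∀ p, e p = ee L ι p := fun _ => rfl
  refine ⟨e, fun p => ?_, fun t => ⟨?_, fun ht => ?_⟩⟩
  · rw [he, ee_of_mem L ι p.2]
  · rintro ⟨l, hl, rfl⟩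
    have : l.image e = l.image (ee L ι) := rfl
    simp only [this]
    exact image_line hP hH6 hH ι hl
  · have hone : 1 < t.card := by rw [lines0_card ht]; norm_num
    obtain ⟨x, hx, y, hy, hxy⟩ := one_lt_card.1 hone
    have hpq : e.symm x ≠ e.symm y := fun h => hxy (e.symm.injective h)
    have hline := ln_mem hP hpq
    have h1 : (ln L (e.symm x) (e.symm y)).image e ∈ lines0 := image_line hP hH6 hH ι hline
    have hxm : x ∈ (ln L (e.symm x) (e.symm y)).image e :=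
      mem_image.2 ⟨_, left_mem_ln hP hpq, by simp⟩
    have hym : y ∈ (ln L (e.symm x) (e.symm y)).image e :=
      mem_image.2 ⟨_, right_mem_ln hP hpq, by simp⟩
    exact ⟨_, hline, lines0_unique h1 ht hxy hxm hym hx hy⟩

end Cfsg.Agent.Lib.Plane4.Classify
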