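import Mathlib
import Cfsg.Prelude.Def_Sporadic_a
import Cfsg.Agent.Lib.Plane4.Classify

/-!
Uniqueness of the plane of order 4; hyperovals and their stabilisers; counting.
-/

set_option autoImplicit false
set_option linter.unusedSectionVars false

namespace Cfsg.Agent.Lib.Plane4.Final

open Finset Cfsg.Agent.Lib.Plane4.Basic Cfsg.Agent.Lib.Plane4.Model Cfsg.Agent.Lib.Plane4.Classify
open scoped Pointwise

variable {α : Type*} [Fintype α] [DecidableEq α] {L : Set (Finset α)}
variable {β : Type*} [Fintype β] [DecidableEq β] {L' : Set (Finset β)}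

/-- Uniqueness of the plane of order 4. -/
theorem iso_of_planes (hP : Plane L) (hP' : Plane L') : Cfsg.SetSystemIso L L' := by
  obtain ⟨H, hH6, hH⟩ := exists_hyperoval hP
  obtain ⟨H', hH6', hH'⟩ := exists_hyperoval hP'
  obtain ⟨e₁, _, he₁⟩ := classify hP hH6 hH (H.equivFinOfCardEq hH6)
  obtain ⟨e₂, _, he₂⟩ := classify hP' hH6' hH' (H'.equivFinOfCardEq hH6')
  refine ⟨e₁.trans e₂.symm, ?_⟩
  ext b'
  constructor
  · rintro ⟨b, hb, rfl⟩
    have h1 := (he₁ (b.image e₁)).1 ⟨b, hb, rfl⟩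
    obtain ⟨c, hc, hce⟩ := (he₂ _).2 h1
    have : b.image (e₁.trans e₂.symm) = c := by
      have h2 : b.image (e₁.trans e₂.symm) = (b.image e₁).image e₂.symm := by
        rw [image_image]; rfl
      have hce' : c.image e₂ = b.image e₁ := hce
      rw [h2, ← hce', image_image]
      simp
    change b.image (e₁.trans e₂.symm) ∈ L'
    rw [this]
    exact hc
  · intro hb'
    have h1 := (he₂ (b'.image e₂)).1 ⟨b', hb', rfl⟩
    obtain ⟨b, hb, hbe⟩ := (he₁ _).2 h1
    refine ⟨b, hb, ?_⟩
    have h2 : b.image (e₁.trans e₂.symm) = (b.image e₁).image e₂.symm := by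
      rw [image_image]; rfl
    change b.image (e₁.trans e₂.symm) = b'
    have hbe' : b.image e₁ = b'.image e₂ := hbe
    rw [h2, hbe', image_image]
    simp

/-- Membership in the automorphism group. -/
lemma mem_aut_iff (g : Equiv.Perm α) :
    g ∈ Cfsg.setSystemAut L ↔ (fun b : Finset α => b.image g) '' L = L := by
  rw [Cfsg.setSystemAut, MulAction.mem_stabilizer_iff]
  have h : (g • L) = (fun b : Finset α => b.image g) '' L := by
    ext b
    simp only [Set.mem_smul_set, Set.mem_image]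
    constructor
    · rintro ⟨c, hc, rfl⟩
      refine ⟨c, hc, ?_⟩
      ext x
      simp [Finset.mem_smul_finset, Equiv.Perm.smul_def, mem_image]
    · rintro ⟨c, hc, rfl⟩
      refine ⟨c, hc, ?_⟩
      ext x
      simp [Finset.mem_smul_finset, Equiv.Perm.smul_def, mem_image]
  rw [h]

/-- An automorphism fixing a hyperoval pointwise is trivial. -/
lemma aut_fix (hP : Plane L) {H : Finset α} (hH6 : H.card = 6) (hH : Ind L H)
    {f : Equiv.Perm α} (hf : (fun b : Finset α => b.image f) '' L = L) (hfix : ∀ p ∈ H, f p = p) :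
    f = 1 := by
  ext x
  rw [Equiv.Perm.one_apply]
  by_cases hxH : x ∈ H
  · exact hfix x hxH
  by_contra hne
  set ι := H.equivFinOfCardEq hH6 with hι
  -- a line through two fixed points is fixed
  have hfixl : ∀ a b, a ∈ H → b ∈ H → a ≠ b → (ln L a b).image f = ln L a b := by
    intro a b ha hb hab
    have h1 : (ln L a b).image f ∈ (fun b : Finset α => b.image f) '' L :=
      ⟨_, ln_mem hP hab, rfl⟩
    rw [hf] at h1
    exact hP.line_unique hab h1 (ln_mem hP hab)
      (mem_image.2 ⟨a, left_mem_ln hP hab, hfix a ha⟩)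
      (mem_image.2 ⟨b, right_mem_ln hP hab, hfix b hb⟩)
      (left_mem_ln hP hab) (right_mem_ln hP hab)
  have hxl : ∀ a b, a ∈ H → b ∈ H → a ≠ b → x ∈ ln L a b → f x ∈ ln L a b := by
    intro a b ha hb hab hx
    rw [← hfixl a b ha hb hab]
    exact mem_image_of_mem _ hx
  have h0 := mm_spec hP hH6 hH ι hxH 0
  obtain ⟨i₁, hi₁0, hi₁j⟩ : ∃ i₁ : Fin 6, i₁ ≠ 0 ∧ i₁ ≠ mm L ι x 0 := by
    by_contra hcon
    push Not at hcon
    have h2 : (1 : Fin 6) = mm L ι x 0 := hcon 1 (by decide)
    have h3 : (2 : Fin 6) = mm L ι x 0 := hcon 2 (by decide)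
    exact absurd (h2.trans h3.symm) (by decide)
  have h1 := mm_spec hP hH6 hH ι hxH i₁
  have hne0 : pt ι 0 ≠ pt ι (mm L ι x 0) := fun hh => h0.1 (pt_inj ι hh).symm
  have hne1 : pt ι i₁ ≠ pt ι (mm L ι x i₁) := fun hh => h1.1 (pt_inj ι hh).symm
  have hA := hxl _ _ (pt_mem ι _) (pt_mem ι _) hne0 h0.2
  have hB := hxl _ _ (pt_mem ι _) (pt_mem ι _) hne1 h1.2
  have heq := hP.line_unique hne (ln_mem hP hne0) (ln_mem hP hne1) hA h0.2 hB h1.2
  have h3 : pt ι i₁ ∈ ln L (pt ι 0) (pt ι (mm L ι x 0)) := by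
    rw [heq]; exact left_mem_ln hP hne1
  exact hH.no_three (ln_mem hP hne0) (pt_mem ι 0) (pt_mem ι _) (pt_mem ι i₁) hne0
    (fun hh => hi₁0 (pt_inj ι hh).symm) (fun hh => hi₁j (pt_inj ι hh).symm)
    (left_mem_ln hP hne0) (right_mem_ln hP hne0) h3

/-- Permutations of a hyperoval extend uniquely. -/
theorem hyperoval_perm (hP : Plane L) {H : Finset α} (hH6 : H.card = 6) (hH : Ind L H)
    (σ : Equiv.Perm ↥H) : ∃! g : Equiv.Perm α, g ∈ Cfsg.setSystemAut L ∧ ∀ p : ↥H, g p = σ p := by
  set ι₀ := H.equivFinOfCardEq hH6 with hι₀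
  obtain ⟨e₀, he₀, hL₀⟩ := classify hP hH6 hH ι₀
  obtain ⟨e₁, he₁, hL₁⟩ := classify hP hH6 hH (σ.symm.trans ι₀)
  have hgL : (fun b : Finset α => b.image (e₀.trans e₁.symm)) '' L = L := by
    ext c
    have himg : ∀ b : Finset α, b.image (e₀.trans e₁.symm) = (b.image e₀).image e₁.symm := by
      intro b
      rw [image_image]; rfl
    constructor
    · rintro ⟨b, hb, rfl⟩
      have h1 := (hL₀ (b.image e₀)).1 ⟨b, hb, rfl⟩
      obtain ⟨c, hc, hce⟩ := (hL₁ _).2 h1
      have : b.image (e₀.trans e₁.symm) = c := by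
        have hce' : c.image e₁ = b.image e₀ := hce
        rw [himg, ← hce', image_image]
        simp
      change b.image (e₀.trans e₁.symm) ∈ L
      rw [this]
      exact hc
    · intro hc
      have h1 := (hL₁ (c.image e₁)).1 ⟨c, hc, rfl⟩
      obtain ⟨b, hb, hbe⟩ := (hL₀ _).2 h1
      refine ⟨b, hb, ?_⟩
      change b.image (e₀.trans e₁.symm) = c
      have hbe' : b.image e₀ = c.image e₁ := hbe
      rw [himg, hbe', image_image]
      simp
  refine ⟨e₀.trans e₁.symm, ⟨(mem_aut_iff _).2 hgL, fun p => ?_⟩, ?_⟩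
  · change e₁.symm (e₀ p) = σ p
    rw [he₀, Equiv.symm_apply_eq, he₁]
    simp
  · rintro g' ⟨hg', hg'p⟩
    have hg'L := (mem_aut_iff g').1 hg'
    -- f = g⁻¹ g' fixes H
    set g := e₀.trans e₁.symm with hg
    have hgp : ∀ p : ↥H, g p = σ p := by
      intro p
      change e₁.symm (e₀ p) = σ p
      rw [he₀, Equiv.symm_apply_eq, he₁]
      simp
    have hfL : (fun b : Finset α => b.image (g.symm.trans g')) '' L = L := by
      have h1 : g.symm ∈ Cfsg.setSystemAut L := by
        have := (mem_aut_iff g).2 hgL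
        exact (Subgroup.inv_mem _ this)
      have h2 : g' * g⁻¹ ∈ Cfsg.setSystemAut L := Subgroup.mul_mem _ hg' h1
      exact (mem_aut_iff _).1 h2
    have hfix : ∀ p ∈ H, (g.symm.trans g') p = p := by
      intro p hp
      have h1 : g.symm p = σ.symm ⟨p, hp⟩ := by
        rw [Equiv.symm_apply_eq, hgp]
        simp
      change g' (g.symm p) = p
      rw [h1, hg'p]
      simp
    have := aut_fix hP hH6 hH hfL hfix
    ext x
    have h2 := congrArg (fun f : Equiv.Perm α => f (g x)) this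
    simpa using h2

/-- Independence of a 4-set, as in the statement. -/
theorem count_ind4 (hP : Plane L) :
    {S : Finset α | (S.card = 4 ∧ ∀ l ∈ L, (l ∩ S).card ≤ 2)}.ncard = 2520 := by
  classical
  obtain ⟨H, hH6, hH⟩ := exists_hyperoval hP
  obtain ⟨e, _, he⟩ := classify hP hH6 hH (H.equivFinOfCardEq hH6)
  set A : Set (Finset α) := {S : Finset α | (S.card = 4 ∧ ∀ l ∈ L, (l ∩ S).card ≤ 2)} with hA
  set B : Finset (Finset (Fin 6 ⊕ Fin 15)) := (powersetCard 4 (univ : Finset (Fin 6 ⊕ Fin 15))).filter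
    (fun S => lines0.all (fun l => decide ((l ∩ S).card ≤ 2)) = true) with hB
  have hinj : Function.Injective (fun S : Finset α => S.image e) :=
    image_injective e.injective
  have himg : (fun S : Finset α => S.image e) '' A = (B : Set (Finset (Fin 6 ⊕ Fin 15))) := by
    ext T
    simp only [Set.mem_image, hB, coe_filter, mem_powersetCard, subset_univ, true_and,
      List.all_eq_true, decide_eq_true_eq]
    constructor
    · rintro ⟨S, ⟨hS4, hS⟩, rfl⟩
      refine ⟨by rw [card_image_of_injective _ e.injective, hS4], fun t ht => ?_⟩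
      obtain ⟨l, hl, rfl⟩ := (he t).2 ht
      rw [← image_inter _ _ e.injective, card_image_of_injective _ e.injective]
      exact hS l hl
    · rintro ⟨hT4, hT⟩
      refine ⟨T.image e.symm, ⟨by rw [card_image_of_injective _ e.symm.injective, hT4], ?_⟩, ?_⟩
      · intro l hl
        have h1 := hT (l.image e) ((he _).1 ⟨l, hl, rfl⟩)
        have h2 : (l.image e ∩ T).card = (l ∩ T.image e.symm).card := by
          have h3 : l.image e ∩ T = (l ∩ T.image e.symm).image e := by
            rw [image_inter _ _ e.injective, image_image]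
            simp
          rw [h3, card_image_of_injective _ e.injective]
        rwa [← h2]
      · rw [image_image]
        simp
  have h2 : A.ncard = B.card := by
    rw [← Set.ncard_coe_finset B, ← himg, Set.ncard_image_of_injective _ hinj]
  rw [h2]
  exact model_count

/-- Counting hyperovals. -/
theorem count_ind6 (hP : Plane L) :
    {H : Finset α | (H.card = 6 ∧ ∀ l ∈ L, (l ∩ H).card ≤ 2)}.ncard = 168 := by
  classical
  set A4 : Finset (Finset α) := univ.filter (fun S => S.card = 4 ∧ ∀ l ∈ L, (l ∩ S).card ≤ 2) with hA4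
  set A6 : Finset (Finset α) := univ.filter (fun S => S.card = 6 ∧ ∀ l ∈ L, (l ∩ S).card ≤ 2) with hA6
  have hcoe4 : {S : Finset α | (S.card = 4 ∧ ∀ l ∈ L, (l ∩ S).card ≤ 2)} = (A4 : Set (Finset α)) := by
    ext; simp [hA4]
  have hcoe6 : {S : Finset α | (S.card = 6 ∧ ∀ l ∈ L, (l ∩ S).card ≤ 2)} = (A6 : Set (Finset α)) := by
    ext; simp [hA6]
  have h4 : A4.card = 2520 := by
    rw [← Set.ncard_coe_finset, ← hcoe4]
    exact count_ind4 hP
  rw [hcoe6, Set.ncard_coe_finset]
  have hU : A4 = A6.biUnion (fun H => powersetCard 4 H) := by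
    ext S
    rw [mem_biUnion, hA4, mem_filter]
    constructor
    · rintro ⟨_, hS4, hS⟩
      obtain ⟨H, ⟨⟨hH6, hH⟩, hSH⟩, _⟩ := exists_unique_hyperoval hP hS4 hS
      refine ⟨H, ?_, mem_powersetCard.2 ⟨hSH, hS4⟩⟩
      rw [hA6, mem_filter]
      exact ⟨mem_univ _, hH6, hH⟩
    · rintro ⟨H, hH, hS⟩
      rw [hA6, mem_filter] at hH
      rw [mem_powersetCard] at hS
      exact ⟨mem_univ _, hS.2, Ind.mono hH.2.2 hS.1⟩
  have hcard : A4.card = 15 * A6.card := by
    rw [hU, card_biUnion]
    · rw [sum_congr rfl (g := fun _ => 15)]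
      · rw [sum_const]
        simp [mul_comm]
      · intro H hH
        rw [hA6, mem_filter] at hH
        rw [card_powersetCard, hH.2.1]
        rfl
    · intro H hH H' hH' hne
      rw [Function.onFun, Finset.disjoint_left]
      intro S hS hS'
      rw [hA6, mem_coe, mem_filter] at hH hH'
      rw [mem_powersetCard] at hS hS'
      have hS4 := hS.2
      have hSi : Ind L S := Ind.mono hH.2.2 hS.1
      obtain ⟨W, _, huniq⟩ := exists_unique_hyperoval hP hS4 hSi
      exact hne ((huniq H ⟨⟨hH.2.1, hH.2.2⟩, hS.1⟩).trans (huniq H' ⟨⟨hH'.2.1, hH'.2.2⟩, hS'.1⟩).symm)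
  omega

end Cfsg.Agent.Lib.Plane4.Final
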